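-- Team project OMG (S2415), package [EMSIEG] (helper65).
import Mathlib
import Cfsg.Agent.Lib.Helper94.OMG.Defs

set_option autoImplicit false
set_option linter.unusedSectionVars false
open scoped Matrix MatrixGroups

namespace Cfsg.Agent.Lib.Helper65.OMG

open Cfsg.Agent.Lib.Helper31.Siegel Cfsg.Agent.Lib.Helper32.OPG Cfsg.Agent.Lib.Helper64.OParM
open Cfsg.Agent.Lib.Helper23.OHyp Cfsg.Agent.Lib.Helper94.OMG

universe u

section

variable {k : ℕ} {F : Type u} [Field F]

theorem elim_comp (x : MI k → F) : x = Sum.elim (x ∘ Sum.inl) (x ∘ Sum.inr) := by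
  ext (i | i) <;> rfl

theorem QM_elim (a b : F) (p : Vec k F) (z : Fin 2 → F) :
    QM k a b (Sum.elim p z) = QF k F p + (z 0 ^ 2 + a * z 0 * z 1 + b * z 1 ^ 2) := rfl

theorem QM_emb (a b : F) (p : Vec k F) : QM k a b (emb p) = QF k F p := by
  unfold emb
  rw [QM_elim]
  simp

theorem emb_smul (c : F) (p : Vec k F) : emb (c • p) = c • emb p := by
  ext (i | i) <;> simp [emb]

theorem emb_add (p q : Vec k F) : emb (p + q) = emb p + emb q := by
  ext (i | i) <;> simp [emb]

/-- the polar form of the minus form against an embedded vector. -/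
theorem BM_emb (a b : F) (p : Vec k F) (x : MI k → F) :
    BM k a b (emb p) x = B p (x ∘ Sum.inl) := by
  have hsum : emb p + x = Sum.elim (p + x ∘ Sum.inl) (x ∘ Sum.inr) := by
    ext (i | i) <;> simp [emb]
  have h1 : Cfsg.quadFormMinus k F a b (emb p + x) = QF k F (p + x ∘ Sum.inl) +
      ((x ∘ Sum.inr) 0 ^ 2 + a * (x ∘ Sum.inr) 0 * (x ∘ Sum.inr) 1 + b * (x ∘ Sum.inr) 1 ^ 2) := by
    rw [hsum]
    rfl
  have h2 : Cfsg.quadFormMinus k F a b (emb p) = QF k F p := QM_emb a b p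
  have h3 : Cfsg.quadFormMinus k F a b x = QF k F (x ∘ Sum.inl) +
      ((x ∘ Sum.inr) 0 ^ 2 + a * (x ∘ Sum.inr) 0 * (x ∘ Sum.inr) 1 + b * (x ∘ Sum.inr) 1 ^ 2) := by
    conv_lhs => rw [elim_comp x]
    rfl
  unfold BM QuadraticMap.polar B
  rw [h1, h2, h3]
  ring

end

/-- [EMSIEG] the embedding of a Siegel element of the hyperbolic part is an Eichler element. -/
theorem pkgEmSieg : PkgEmSieg.{u} := by
  intro F _ k a b p r c σ hp hσ x
  rw [matM_Em, hσ (x ∘ Sum.inl), ← emb_smul, BM_emb, BM_emb, QM_emb, Q_smul, hp, B_smul_left,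
    B_comm r, B_comm p]
  ext (i | i)
  · simp [emb]
    ring
  · simp [emb]

end Cfsg.Agent.Lib.Helper65.OMG
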