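-- Team project OMG (S2415), package [SHORT] (helper65).
import Mathlib
import Cfsg.Agent.Lib.Helper94.OMG.Defs
import Cfsg.Agent.Lib.Helper38.OPG.XL

set_option autoImplicit false
set_option linter.unusedSectionVars false
open scoped Matrix MatrixGroups

namespace Cfsg.Agent.Lib.Helper65.OMG

open Cfsg.Agent.Lib.Helper31.Siegel Cfsg.Agent.Lib.Helper32.OPG Cfsg.Agent.Lib.Helper64.OParM
open Cfsg.Agent.Lib.Helper23.OHyp Cfsg.Agent.Lib.Helper94.OMG

universe u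

section

variable {k : ℕ} {F : Type u} [Field F] {a b : F}

/-- conjugation of Eichler elements: `g E(u, w) g⁻¹ = E(g u, g w)`. -/
theorem isEich_conj {u w : MI k → F} {σ : ↥(GM k F a b)} (g : ↥(GM k F a b))
    (h : IsEich a b u w σ) :
    IsEich a b (matM g *ᵥ u) (matM g *ᵥ w) (g * σ * g⁻¹) := by
  intro x
  have e1 : BM k a b u (matM g⁻¹ *ᵥ x) = BM k a b (matM g *ᵥ u) x := by
    rw [← BM_act g u (matM g⁻¹ *ᵥ x), actM_inv]
  have e2 : BM k a b w (matM g⁻¹ *ᵥ x) = BM k a b (matM g *ᵥ w) x := by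
    rw [← BM_act g w (matM g⁻¹ *ᵥ x), actM_inv]
  rw [mulM_act, mulM_act, h (matM g⁻¹ *ᵥ x), Matrix.mulVec_sub, Matrix.mulVec_add,
    Matrix.mulVec_smul, Matrix.mulVec_smul, actM_inv, e1, e2, QM_act]

/-- a Weyl element of the Levi subgroup: `e_{i₀} ↦ e_l`, `f_{i₀} ↦ f_l`. -/
theorem weyl_act (i0 l : Fin k) (h : i0 ≠ l) :
    ∃ γ : Matrix.SpecialLinearGroup (Fin k) F,
      mat (L k F γ) *ᵥ (E i0 : Vec k F) = E l ∧ mat (L k F γ) *ᵥ (Fv i0 : Vec k F) = Fv l := by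
  have h1 := Cfsg.Agent.Lib.Helper38.OPG.pkgXL.{u} k F l i0 (Ne.symm h) 1
  have h2 := Cfsg.Agent.Lib.Helper38.OPG.pkgXL.{u} k F i0 l h (-1)
  refine ⟨Matrix.SpecialLinearGroup.transvection (Ne.symm h) 1 *
    Matrix.SpecialLinearGroup.transvection h (-1) *
    Matrix.SpecialLinearGroup.transvection (Ne.symm h) 1, ?_, ?_⟩
  · rw [map_mul, map_mul, mul_act, mul_act, h1 (E i0)]
    have e1 : (E i0 : Vec k F) + (1 * B (E i0 : Vec k F) (Fv i0)) • (E l : Vec k F) -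
        (1 * B (E i0 : Vec k F) (E l)) • (Fv i0 : Vec k F) = E i0 + E l := by
      rw [B_E_Fv, if_pos rfl, B_E_E]
      simp
    rw [e1, h2 (E i0 + E l)]
    have e2 : (E i0 : Vec k F) + E l + (-1 * B (E i0 + E l : Vec k F) (Fv l)) • (E i0 : Vec k F) -
        (-1 * B (E i0 + E l : Vec k F) (E i0)) • (Fv l : Vec k F) = E l := by
      rw [B_add_left, B_add_left, B_E_Fv, B_E_Fv, if_neg h, if_pos rfl, B_E_E, B_E_E]
      simp
    rw [e2, h1 (E l)]
    rw [B_E_Fv, if_neg (Ne.symm h), B_E_E]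
    simp
  · rw [map_mul, map_mul, mul_act, mul_act, h1 (Fv i0)]
    have e1 : (Fv i0 : Vec k F) + (1 * B (Fv i0 : Vec k F) (Fv i0)) • (E l : Vec k F) -
        (1 * B (Fv i0 : Vec k F) (E l)) • (Fv i0 : Vec k F) = Fv i0 := by
      rw [B_Fv_Fv, B_Fv_E, if_neg h]
      simp
    rw [e1, h2 (Fv i0)]
    have e2 : (Fv i0 : Vec k F) + (-1 * B (Fv i0 : Vec k F) (Fv l)) • (E i0 : Vec k F) -
        (-1 * B (Fv i0 : Vec k F) (E i0)) • (Fv l : Vec k F) = Fv i0 + Fv l := by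
      rw [B_Fv_Fv, B_Fv_E, if_pos rfl]
      simp
    rw [e2, h1 (Fv i0 + Fv l)]
    rw [B_add_left, B_add_left, B_Fv_Fv, B_Fv_Fv, B_Fv_E, B_Fv_E, if_neg h, if_pos rfl]
    simp

theorem matM_Lm_emb (γ : Matrix.SpecialLinearGroup (Fin k) F) (p : Vec k F) :
    matM (Lm k F a b γ) *ᵥ (emb p : MI k → F) = emb (mat (L k F γ) *ᵥ p) := by
  rw [Lm_apply, matM_Em]
  rfl

theorem matM_Lm_isZ (γ : Matrix.SpecialLinearGroup (Fin k) F) (w : MI k → F) (hw : IsZ w) :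
    matM (Lm k F a b γ) *ᵥ w = w := by
  rw [Lm_apply, matM_Em]
  have h0 : w ∘ Sum.inl = 0 := by
    funext j
    exact hw j
  rw [h0, Matrix.mulVec_zero]
  ext (j | j)
  · simp [hw j]
  · simp

end

/-- [SHORT] the short root elements for all `i ≠ l` give those for `i = l`. -/
theorem pkgShort : PkgShort.{u} := by
  intro F _ _ k a b _ hk K hLm l hl i w hw σ hσ
  by_cases hil : i = l
  · subst hil
    obtain ⟨i0, hi0⟩ : ∃ i0 : Fin k, i0 ≠ i := by
      by_cases h0 : i.val = 0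
      · refine ⟨⟨1, by omega⟩, fun h => ?_⟩
        have := congrArg Fin.val h
        simp at this
        omega
      · refine ⟨⟨0, by omega⟩, fun h => ?_⟩
        have := congrArg Fin.val h
        simp at this
        omega
    obtain ⟨γ, hγe, hγf⟩ := weyl_act (F := F) i0 i hi0
    have hΓK : Lm k F a b γ ∈ K := hLm γ
    have hΓe : matM (Lm k F a b γ) *ᵥ (eM i0 : MI k → F) = eM i := by
      rw [← emb_E, matM_Lm_emb, hγe, emb_E]
    have hΓf : matM (Lm k F a b γ) *ᵥ (fM i0 : MI k → F) = fM i := by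
      rw [← emb_Fv, matM_Lm_emb, hγf, emb_Fv]
    have hΓw : matM (Lm k F a b γ) *ᵥ w = w := matM_Lm_isZ γ w hw
    have hie : matM (Lm k F a b γ)⁻¹ *ᵥ (eM i : MI k → F) = eM i0 := by
      rw [← hΓe, invM_act]
    have hif : matM (Lm k F a b γ)⁻¹ *ᵥ (fM i : MI k → F) = fM i0 := by
      rw [← hΓf, invM_act]
    have hiw : matM (Lm k F a b γ)⁻¹ *ᵥ w = w := by
      have h1 := invM_act (Lm k F a b γ) w
      rwa [hΓw] at h1
    have hτ : (Lm k F a b γ)⁻¹ * σ * (Lm k F a b γ)⁻¹⁻¹ ∈ K := by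
      apply hl i0 hi0 w hw
      rcases hσ with h | h
      · left
        have h1 := isEich_conj (Lm k F a b γ)⁻¹ h
        rwa [hie, hiw] at h1
      · right
        have h1 := isEich_conj (Lm k F a b γ)⁻¹ h
        rwa [hif, hiw] at h1
    have e : σ = Lm k F a b γ * ((Lm k F a b γ)⁻¹ * σ * (Lm k F a b γ)⁻¹⁻¹) * (Lm k F a b γ)⁻¹ := by
      group
    rw [e]
    exact K.mul_mem (K.mul_mem hΓK hτ) (K.inv_mem hΓK)
  · exact hl i hil w hw σ hσ

end Cfsg.Agent.Lib.Helper65.OMG
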